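import Cfsg.Agent.LargeFischer91.Lifts
import Cfsg.Agent.Transfer.ThompsonTransfer
import Mathlib.GroupTheory.IsPerfect
import Mathlib.GroupTheory.Index

/-!
Large Fischer type: the centralizer of the duad `ab` has a subgroup of index two, by transfer.
-/

set_option autoImplicit false
set_option maxRecDepth 100000

namespace CfsgLib.LargeFischer91

open Cfsg CfsgLib.LargeFischer85 CfsgLib.LargeFischer28 CfsgLib.LargeFischer45
  CfsgLib.LargeFischer58

/-- The vector used for the outer involution. -/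
theorem vec_five : sing 5 ∧ inOne 0 5 ∧ sing (vadd 5 e1) ∧ inOne 0 (vadd 5 e1) ∧ orth 5 e1 ∧
    (5 : W) ≠ e1 ∧ (5 : W) ≠ e2 ∧ (5 : W) ≠ vadd e1 e2 ∧ om e2 = vadd e1 e2 ∧
    vadd e1 (vadd e1 e2) = e2 ∧ (5 : W) ≠ 0 ∧ vadd 5 e1 ≠ 0 := by
  decide +kernel

variable {G : Type*} [Group G] [Finite G] {z : G} {Q : Subgroup ↥(CG z)} [Q.Normal]
  (C : LargeFischer58.Cfg z Q)

theorem other_of_inOne {q : ↥Q} (h0 : C.pr q ≠ 0) (hs : sing (C.pr q)) (h1 : inOne 0 (C.pr q)) :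
    Other z ((q : ↥(CG z)) : G) := by
  refine ⟨fun e => h0 ((C.std.model.pr_zero q).2 (Or.inl e)), fun hc => ?_⟩
  exact (C.std.cls.two q h0 hs).1 hc h1

/-- A transformation of the frame fixing `e1` does not take `5` into the distinguished line. -/
theorem no_move {g : Equiv.Perm W} (hg : IsGood g) (h1 : g e1 = e1) :
    g 5 ≠ e2 ∧ g 5 ≠ vadd e1 e2 := by
  obtain ⟨-, -, -, -, -, -, h52, h512, hom, hadd, -, -⟩ := vec_five
  have h2 : g e2 = e2 ∨ g e2 = vadd e1 e2 := by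
    rcases hg.semi with h | h
    · exact Or.inl (show g (om e1) = om e1 by rw [h, h1])
    · exact Or.inr (show g (om e1) = vadd e1 e2 by rw [h, h1, ← hom]; rfl)
  have h12 : g (vadd e1 e2) = vadd e1 (g e2) := by rw [hg.add, h1]
  constructor <;> intro e <;> rcases h2 with h2 | h2
  · exact h52 (g.injective (e.trans h2.symm))
  · exact h512 (g.injective (e.trans (by rw [h12, h2, hadd])))
  · exact h512 (g.injective (e.trans (by rw [h12, h2])))
  · exact h52 (g.injective (e.trans h2.symm))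

/-- An involution of `C(ab)` that is not fused there to `bc` or `ac`. -/
theorem exists_outer (hcov : CovHyp C) : ∃ j ∈ CT C, j * j = 1 ∧ j ≠ 1 ∧ Other z j ∧
    Other z (j * C.d C.a C.b) ∧
      ∀ k ∈ CT C, k * j * k⁻¹ ≠ C.d C.b C.c ∧ k * j * k⁻¹ ≠ C.d C.a C.c := by
  obtain ⟨hs, h1, hs', h1', ho, -, -, -, -, -, h0, h0'⟩ := vec_five
  obtain ⟨q, hq⟩ := C.std.model.pr_surj 5
  obtain ⟨q1, p1, c1⟩ := C.q1
  obtain ⟨q2, p2, c2⟩ := C.q2
  set j : G := ((q : ↥(CG z)) : G) with hj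
  have hjQ : j ∈ C.QG := Cfg.coe_mem_QG.2 q.2
  have hjo : Other z j := other_of_inOne C (hq ▸ h0) (hq ▸ hs) (hq ▸ h1)
  have e1' : C.pr (q * q1) = vadd 5 e1 := by rw [C.std.model.pr_mul, hq, p1]
  have hval : (((q * q1 : ↥Q) : ↥(CG z)) : G) = j * C.d C.a C.b := by
    rw [← c1]; rfl
  have hjo' : Other z (j * C.d C.a C.b) :=
    hval ▸ other_of_inOne C (e1'.symm ▸ h0') (e1'.symm ▸ hs') (e1'.symm ▸ h1')
  have hjab : j * C.d C.a C.b = C.d C.a C.b * j := by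
    rw [← c1]
    exact congrArg Subtype.val ((comm_iff_orth C.std.model q q1).2 (by rw [hq, p1]; exact ho))
  have hj2 : j * j = 1 := congrArg (fun x : ↥Q => ((x : ↥(CG z)) : G))
    ((C.std.model.pr_sq q).1 (hq ▸ hs))
  refine ⟨j, (mem_CT C).2 hjab, hj2, hjo.1, hjo, hjo', ?_⟩
  intro k hk
  by_contra hno
  have hy : k * j * k⁻¹ = C.d C.b C.c ∨ k * j * k⁻¹ = C.d C.a C.c := by tauto
  have hkab : k * C.d C.a C.b * k⁻¹ = C.d C.a C.b := conj_ab C hk
  set x := k * z * k⁻¹ with hx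
  -- `x` is an involution of `C(E)`
  have hzc : ∀ v ∈ C.QG, z * v = v * z := fun v hv =>
    (Subgroup.mem_centralizer_singleton_iff.1 (C.QG_le_CG hv)).symm
  have hxab : x * C.d C.a C.b = C.d C.a C.b * x := by
    calc x * C.d C.a C.b = k * z * k⁻¹ * (k * C.d C.a C.b * k⁻¹) := by rw [hkab, hx]
      _ = k * (z * C.d C.a C.b) * k⁻¹ := conj_mul
      _ = k * (C.d C.a C.b * z) * k⁻¹ := by rw [hzc _ C.ab_mem_QG]
      _ = _ := by rw [← conj_mul, hkab, hx]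
  have hxy : x * (k * j * k⁻¹) = k * j * k⁻¹ * x := by
    rw [hx, conj_mul, conj_mul, hzc _ hjQ]
  have hxoy : Other z (x * (k * j * k⁻¹)) := by
    rw [hx, conj_mul, hzc _ hjQ]
    exact (other_conj k).2 (C.facts.loc.mul_z hjQ hjo (IsConj.refl z))
  have hxoab : Other z (x * C.d C.a C.b) := by
    rw [← hkab, hx, conj_mul, hzc _ C.ab_mem_QG]
    exact (other_conj k).2 (C.z_mul_E_other C.ab_mem_E (C.duads.other _ _ C.hab).1)
  have hxoy' : Other z (x * (C.d C.a C.b * (k * j * k⁻¹))) := by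
    rw [← hkab, hx, conj_mul, conj_mul, hzc _ (mul_mem C.ab_mem_QG hjQ)]
    refine (other_conj k).2 (C.facts.loc.mul_z (mul_mem C.ab_mem_QG hjQ) ?_ (IsConj.refl z))
    exact hjab ▸ hjo'
  have e3 : C.d C.a C.b * C.d C.a C.c = C.d C.b C.c := C.tri' C.hab.symm C.hac C.hbc
  have hxE : x * C.d C.b C.c = C.d C.b C.c * x ∧ Other z (x * C.d C.b C.c) := by
    rcases hy with h | h
    · exact h ▸ ⟨hxy, hxoy⟩
    · refine ⟨?_, by rw [← e3, ← h]; exact hxoy'⟩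
      rw [← e3, ← h, ← mul_assoc, hxab, mul_assoc, hxy, ← mul_assoc]
  have hxC : x ∈ C.CE := C.mem_CE_iff.2 ⟨hxab, hxE.1⟩
  have hz2 : z * z = 1 := by rw [← sq, ← C.std.model.ord]; exact pow_orderOf_eq_one z
  obtain ⟨m, hm, hmA⟩ := exists_conj_AG C hcov hxC (by rw [hx, conj_mul, hz2, mul_one,
    mul_inv_cancel])
  have hmv : ∀ v ∈ C.E, Other z (x * v) → Other z (m * x * m⁻¹ * v) := by
    intro v hv hov
    have : m * x * m⁻¹ * v = m * (x * v) * m⁻¹ := by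
      have hf : m * v * m⁻¹ = v :=
        mul_inv_eq_iff_eq_mul.2 (Subgroup.mem_centralizer_iff.1 hm v hv).symm
      calc m * x * m⁻¹ * v = m * x * m⁻¹ * (m * v * m⁻¹) := by rw [hf]
        _ = _ := conj_mul
    exact this ▸ (other_conj m).2 hov
  obtain ⟨s, sa, sb, sc, hs⟩ := C.eq_zp hmA
    ((isConj_iff_right (z := z) m).2 ((isConj_iff_right (z := z) k).2 (IsConj.refl z)))
    (hmv _ C.ab_mem_E hxoab) (hmv _ C.bc_mem_E hxE.2)
  obtain ⟨n, -, hn, hnz⟩ := exists_to_e C sa sb sc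
  set h := n * m * k with hh
  have hhz : h * z * h⁻¹ = z := by
    refine Eq.trans ?_ hnz
    rw [hs, hh, hx]
    group
  have hnm : n * m ∈ C.CE := mul_mem hn hm
  have hfixE : ∀ v ∈ C.E, n * m * v * (n * m)⁻¹ = v := fun v hv =>
    mul_inv_eq_iff_eq_mul.2 (Subgroup.mem_centralizer_iff.1 hnm v hv).symm
  have hhab : h * C.d C.a C.b * h⁻¹ = C.d C.a C.b := by
    have : h * C.d C.a C.b * h⁻¹ = n * m * (k * C.d C.a C.b * k⁻¹) * (n * m)⁻¹ := by
      rw [hh]; group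
    rw [this, hkab, hfixE _ C.ab_mem_E]
  have hhj : h * j * h⁻¹ = k * j * k⁻¹ := by
    have : h * j * h⁻¹ = n * m * (k * j * k⁻¹) * (n * m)⁻¹ := by rw [hh]; group
    rw [this]
    rcases hy with e | e <;> rw [e]
    · exact hfixE _ C.bc_mem_E
    · exact hfixE _ C.ac_mem_E
  let hC : ↥(CG z) := ⟨h, Subgroup.mem_centralizer_singleton_iff.2 (mul_inv_eq_iff_eq_mul.1 hhz)⟩
  obtain ⟨r, hr, hpr⟩ := act_pr' C.std.model hC q
  have hrv : ((r : ↥(CG z)) : G) = k * j * k⁻¹ := by rw [hr]; exact hhj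
  have hg1 : fhom C.act hC e1 = e1 := by
    rw [← p1]
    refine fix_of_comm C.std.model (Subtype.ext ?_)
    show h * ((q1 : ↥(CG z)) : G) = ((q1 : ↥(CG z)) : G) * h
    rw [c1]
    exact mul_inv_eq_iff_eq_mul.1 hhab
  obtain ⟨hA, hB⟩ := no_move (fhom_good C.std.model hC) hg1
  rw [← hq] at hA hB
  rcases hy with e | e
  · refine hA ?_
    rw [← hpr, ← p2]
    exact congrArg C.pr (Subtype.ext (Subtype.ext (hrv.trans (e.trans c2.symm))))
  · refine hB ?_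
    rw [← hpr, ← p1, ← p2, ← C.std.model.pr_mul]
    refine congrArg C.pr (Subtype.ext (Subtype.ext (hrv.trans (e.trans ?_))))
    show C.d C.a C.c = ((q1 : ↥(CG z)) : G) * ((q2 : ↥(CG z)) : G)
    rw [c1, c2, C.ab_bc]

/-- Two members of the normalizer in `C(ab)` outside the inner part differ by an inner one. -/
theorem mul_mem_inner {g h : G} (hg : g ∈ Subgroup.normalizer (C.AG : Set G)) (hgT : g ∈ CT C)
    (hgi : g ∉ inner C) (hh : h ∈ Subgroup.normalizer (C.AG : Set G)) (hhT : h ∈ CT C)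
    (hhi : h ∉ inner C) : g * h ∈ inner C := by
  obtain ⟨σ, hσ, hσg⟩ := exists_act hg
  obtain ⟨τ, hτ, hτh⟩ := exists_act hh
  rcases hσg.pair C.hab ((mem_CT C).1 hgT) with ⟨a1, b1⟩ | ⟨a1, b1⟩
  · exact absurd ⟨hg, σ, hσ, hσg, a1, b1⟩ hgi
  rcases hτh.pair C.hab ((mem_CT C).1 hhT) with ⟨a2, b2⟩ | ⟨a2, b2⟩
  · exact absurd ⟨hh, τ, hτ, hτh, a2, b2⟩ hhi
  exact ⟨mul_mem hg hh, σ * τ, mul_mem hσ hτ, hσg.mul hτh,
    by rw [Equiv.Perm.mul_apply, a2, b1], by rw [Equiv.Perm.mul_apply, b2, a1]⟩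

/-- The subgroup of index two of `C(ab)`. -/
theorem exists_index_two (hcov : CovHyp C) (hperf : Group.IsPerfect ↥C.CE) :
    ∃ M : Subgroup ↥(CT C), M.Normal ∧ M.index = 2 ∧
      (∀ g : ↥(CT C), (g : G) ∈ C.CE → g ∈ M) ∧
      (∀ g ∈ M, (g : G) * C.d C.b C.c * (g : G)⁻¹ ≠ C.d C.a C.c) ∧
      ∃ m ∈ M, (m : G) * C.d C.b C.c * (m : G)⁻¹ ≠ C.d C.b C.c ∧
        Commute ((m : G) * C.d C.b C.c * (m : G)⁻¹) (C.d C.b C.c) := by
  classical
  obtain ⟨T, hAT, hTN⟩ := exists_sylow C (CT C) (AG_le_CT C)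
  obtain ⟨j, hjT, hj2, -, hjo, hjo', hfree⟩ := exists_outer C hcov
  obtain ⟨g₀, hg₀⟩ := exists_conj_sylow T (y := ⟨j, hjT⟩) (Subtype.ext hj2)
  set j' : ↥(CT C) := g₀ * ⟨j, hjT⟩ * g₀⁻¹ with hj'
  set S : Subgroup ↥(CT C) := (inner C).subgroupOf (CT C) ⊓ (T : Subgroup ↥(CT C)) with hS
  have hnofuse : ∀ g : ↥(CT C), g * j' * g⁻¹ ∉ S := by
    intro g hg
    set k : G := (g : G) * (g₀ : G) with hk
    have hkT : k ∈ CT C := mul_mem g.2 g₀.2
    have hval : ((g * j' * g⁻¹ : ↥(CT C)) : G) = k * j * k⁻¹ := by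
      simp only [hj', hk, Subgroup.coe_mul, InvMemClass.coe_inv]
      group
    have hin : k * j * k⁻¹ ∈ inner C := hval ▸ Subgroup.mem_subgroupOf.1 hg.1
    obtain ⟨k', hk', he⟩ := inner_fusion C hcov hin (by rw [conj_mul, hj2, mul_one, mul_inv_cancel])
      ((other_conj k).2 hjo) (by
        conv in (k * j * k⁻¹ * C.d C.a C.b) => rw [← conj_ab C hkT, conj_mul]
        exact (other_conj k).2 hjo')
    have hmul : k' * (k * j * k⁻¹) * k'⁻¹ = k' * k * j * (k' * k)⁻¹ := by group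
    rw [hmul] at he
    rcases he with he | he
    · exact (hfree _ (mul_mem hk' hkT)).1 he
    · exact (hfree _ (mul_mem hk' hkT)).2 he
  have hj'S : j' ∉ S := by simpa using hnofuse 1
  have hSi : S.relIndex (T : Subgroup ↥(CT C)) = 2 := by
    refine Subgroup.index_eq_two_iff.2 ⟨⟨j', hg₀⟩, fun b => ?_⟩
    have hmem : ∀ x : ↥(T : Subgroup ↥(CT C)),
        x ∈ S.subgroupOf (T : Subgroup ↥(CT C)) ↔ ((x : ↥(CT C)) : G) ∈ inner C := fun x => by
      rw [Subgroup.mem_subgroupOf]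
      exact ⟨fun h => h.1, fun h => ⟨h, x.2⟩⟩
    have hj'i : (j' : G) ∉ inner C := fun h => hj'S ⟨h, hg₀⟩
    rw [hmem, hmem]
    by_cases hb : ((b : ↥(CT C)) : G) ∈ inner C
    · refine Or.inr ⟨hb, fun h => hj'i ?_⟩
      simpa [mul_assoc] using mul_mem (inv_mem hb) h
    · exact Or.inl ⟨mul_mem_inner C (hTN _ b.2) (b : ↥(CT C)).2 hb (hTN _ hg₀) j'.2 hj'i, hb⟩
  have hord : orderOf j' = 2 := by
    refine orderOf_eq_prime ?_ fun h => hj'S (h ▸ one_mem S)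
    rw [sq, hj', conj_mul, show (⟨j, hjT⟩ : ↥(CT C)) * ⟨j, hjT⟩ = 1 from Subtype.ext hj2, mul_one,
      mul_inv_cancel]
  rcases CfsgLib.Transfer.thompsonTransferLemma T S inf_le_right hSi j' hord hg₀ hj'S with
    ⟨M, hMn, hMi, hjM⟩ | ⟨g, hg⟩
  swap
  · exact absurd hg (hnofuse g)
  haveI := hMn
  -- `C(E)` lies in `M`
  have hCE : ∀ g : ↥(CT C), (g : G) ∈ C.CE → g ∈ M := by
    intro g hg
    let φ : ↥C.CE →* ↥(CT C) ⧸ M :=
      (QuotientGroup.mk' M).comp (Subgroup.inclusion (CE_le_CT C))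
    have hker : ⊤ ≤ φ.ker := by
      have hc : commutator ↥C.CE ≤ φ.ker := by
        rw [commutator_def, Subgroup.commutator_le]
        intro x _ y _
        rw [MonoidHom.mem_ker, commutatorElement_def, map_mul, map_mul, map_mul, map_inv, map_inv]
        haveI : Fact (Nat.Prime 2) := ⟨Nat.prime_two⟩
        haveI : IsCyclic (↥(CT C) ⧸ M) := isCyclic_of_prime_card (p := 2)
          (by rw [← hMi]; rfl)
        letI : CommGroup (↥(CT C) ⧸ M) := IsCyclic.commGroup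
        rw [mul_comm (φ x) (φ y)]
        group
      rwa [hperf.commutator_eq_top] at hc
    have h := hker (Subgroup.mem_top (⟨g, hg⟩ : ↥C.CE))
    exact (QuotientGroup.eq_one_iff g).1 h
  have hconj : ∀ n g : ↥(CT C), n * g * n⁻¹ ∈ M → g ∈ M := fun n g h => by
    have := hMn.conj_mem _ h n⁻¹
    simpa [mul_assoc] using this
  -- the inner part lies in `M`
  have hinner : ∀ g : ↥(CT C), (g : G) ∈ inner C → g ∈ M := by
    rintro g ⟨-, σ, -, hσg, ha, hb⟩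
    by_cases hc : σ C.c = C.c
    · exact hCE g (hσg.mem_CE ha hb hc)
    set c' := σ C.c with hc'
    have c'a : c' ≠ C.a := fun e => C.hac (σ.injective (ha.trans e.symm))
    have c'b : c' ≠ C.b := fun e => C.hbc (σ.injective (hb.trans e.symm))
    obtain ⟨d, da, db, dc, dc'⟩ : ∃ d, d ≠ C.a ∧ d ≠ C.b ∧ d ≠ C.c ∧ d ≠ c' := by
      by_contra hno
      push Not at hno
      have hsub : (Finset.univ : Finset GolayPt) ⊆ {C.a, C.b, C.c, c'} := fun d _ => by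
        simp only [Finset.mem_insert, Finset.mem_singleton]
        tauto
      have := (Finset.card_le_card hsub).trans Finset.card_le_four
      rw [Finset.card_univ, show Fintype.card GolayPt = 24 from rfl] at this
      omega
    obtain ⟨τ, hτ, ta, tb, td, tc⟩ := exists_four C.hab da.symm C.hac db.symm C.hbc dc C.hab
      da.symm c'a.symm db.symm c'b.symm dc'
    obtain ⟨t, -, ht⟩ := exists_lift (C := C) hτ
    have htT : t ∈ CT C := (mem_CT C).2 (ht.commute C.hab ta tb)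
    obtain ⟨ρ, hρ, ra, rb, rc⟩ := exists_three C.hab C.hac C.hbc C.hab da.symm db.symm
    obtain ⟨n, -, hn⟩ := exists_lift (C := C) hρ
    have hnT : n ∈ CT C := (mem_CT C).2 (hn.commute C.hab ra rb)
    have htM : (⟨t, htT⟩ : ↥(CT C)) ∈ M := by
      refine hconj ⟨n⁻¹, inv_mem hnT⟩ _ (hCE _ ?_)
      have hact := (hn.inv.mul ht).mul hn.inv.inv
      refine hact.mem_CE ?_ ?_ ?_ <;>
        simp only [Equiv.Perm.mul_apply, inv_inv, ra, rb, rc, ta, tb, td,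
          Equiv.Perm.inv_eq_iff_eq]
    have hrest : (⟨t, htT⟩ : ↥(CT C))⁻¹ * g ∈ M := by
      refine hCE _ ((ht.inv.mul hσg).mem_CE ?_ ?_ ?_) <;>
        simp only [Equiv.Perm.mul_apply, Equiv.Perm.inv_eq_iff_eq, ha, hb, ta, tb, tc]
      exact hc'.symm
    simpa using mul_mem htM hrest
  -- a swapper fixing `c`
  obtain ⟨π, hπ, pa, pb, pc⟩ := exists_three C.hab C.hac C.hbc C.hab.symm C.hbc C.hac
  obtain ⟨s, hsN, hs⟩ := exists_lift (C := C) hπ
  have hsT : s ∈ CT C := by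
    refine (mem_CT C).2 (mul_inv_eq_iff_eq_mul.1 ?_)
    rw [hs _ _ C.hab, pa, pb, C.duads.symm]
  have hsM : (⟨s, hsT⟩ : ↥(CT C)) ∉ M := by
    intro hsM
    refine hjM ?_
    have hsi : s ∉ inner C := by
      rintro ⟨-, σ, -, hσ, ha, -⟩
      have h1 := act_one_eq (C := C) (show Act C (1 : G) (σ⁻¹ * π) from by
        simpa using hσ.inv.mul hs)
      rw [inv_mul_eq_one] at h1
      rw [h1, pa] at ha
      exact C.hab ha.symm
    by_cases hi : (j' : G) ∈ inner C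
    · exact hinner _ hi
    · have hp := hinner (⟨s, hsT⟩ * j')
        (mul_mem_inner C hsN hsT hsi (hTN _ hg₀) j'.2 hi)
      simpa using mul_mem (inv_mem hsM) hp
  refine ⟨M, hMn, hMi, hCE, ?_, ?_⟩
  · intro g hg e
    refine hsM ((mul_mem_cancel_left hg).1 ?_)
    refine hCE _ (C.mem_CE_iff.2 ⟨(mem_CT C).1 (g * ⟨s, hsT⟩).2, ?_⟩)
    refine mul_inv_eq_iff_eq_mul.1 ?_
    have hsac : s * C.d C.a C.c * s⁻¹ = C.d C.b C.c := by rw [hs _ _ C.hac, pa, pc]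
    have hsbc : s * C.d C.b C.c * s⁻¹ = C.d C.a C.c := by rw [hs _ _ C.hbc, pb, pc]
    have eab : (g : G) * C.d C.a C.b * (g : G)⁻¹ = C.d C.a C.b := conj_ab C g.2
    calc ((g * ⟨s, hsT⟩ : ↥(CT C)) : G) * C.d C.b C.c * ((g * ⟨s, hsT⟩ : ↥(CT C)) : G)⁻¹
        = (g : G) * (s * C.d C.b C.c * s⁻¹) * (g : G)⁻¹ := by
          simp only [Subgroup.coe_mul]; group
      _ = (g : G) * (C.d C.a C.b * C.d C.b C.c) * (g : G)⁻¹ := by rw [hsbc, C.ab_bc]
      _ = C.d C.a C.b * C.d C.a C.c := by rw [← conj_mul, eab, e]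
      _ = _ := C.tri' C.hab.symm C.hac C.hbc
  · obtain ⟨σ, hσ, ha, hb, hc⟩ :=
      exists_three C.hab C.hac C.hbc C.hab C.hae C.hbe
    obtain ⟨m, hmN, hm⟩ := exists_lift (C := C) hσ
    have hmi : m ∈ inner C := ⟨hmN, σ, hσ, hm, ha, hb⟩
    refine ⟨⟨m, inner_le_CT C hmi⟩, hinner _ hmi, ?_, ?_⟩
    · show m * C.d C.b C.c * m⁻¹ ≠ C.d C.b C.c
      rw [hm _ _ C.hbc, hb, hc]
      refine C.d_ne C.hbe ⟨?_, ?_⟩ <;> simp [C.hbe, C.hce, C.hbc.symm, C.hbe.symm]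
    · show m * C.d C.b C.c * m⁻¹ * C.d C.b C.c = C.d C.b C.c * (m * C.d C.b C.c * m⁻¹)
      rw [hm _ _ C.hbc, hb, hc]
      exact C.AG_comm (C.duads.mem _ _ C.hbe) (C.duads.mem _ _ C.hbc)

end CfsgLib.LargeFischer91
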