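import Cfsg.Agent.LargeFischer58.Points
import Cfsg.Agent.LargeFischer58.Local
import Cfsg.Agent.LargeFischer58.Exists
import Cfsg.Agent.Mathieu.FixList
import Mathlib.GroupTheory.Perm.Cycle.Type

/-!
Large Fischer type: the permutations induced on the 24 points by the normalizer of the elementary
subgroup, the 2-subgroups containing it, and fusion of involutions of `C(E)` into it.
-/

set_option autoImplicit false
set_option maxRecDepth 100000

namespace CfsgLib.LargeFischer91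

open Cfsg CfsgLib.LargeFischer85 CfsgLib.LargeFischer28 CfsgLib.LargeFischer45
  CfsgLib.LargeFischer58

variable {G : Type*} [Group G] [Finite G] {z : G} {Q : Subgroup ↥(CG z)} [Q.Normal]
  (C : LargeFischer58.Cfg z Q)

/-- The element `m` induces `σ` on the duads. -/
def Act (m : G) (σ : Equiv.Perm GolayPt) : Prop :=
  ∀ p q, p ≠ q → m * C.d p q * m⁻¹ = C.d (σ p) (σ q)

/-- The hypothesis on the covering of involutions of `C(E)` commuting with `z`. -/
def CovHyp : Prop :=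
  ∀ j ∈ C.CE, j * z = z * j → j * j ∈ C.E → ∃ g ∈ C.CE, g * z = z * g ∧ g * j * g⁻¹ ∈ C.AG

variable {C}

theorem Act.mul {m n : G} {σ τ : Equiv.Perm GolayPt} (hm : Act C m σ) (hn : Act C n τ) :
    Act C (m * n) (σ * τ) := by
  intro p q hpq
  calc m * n * C.d p q * (m * n)⁻¹ = m * (n * C.d p q * n⁻¹) * m⁻¹ := by group
    _ = _ := by rw [hn p q hpq, hm _ _ (τ.injective.ne hpq)]; rfl

theorem Act.inv {m : G} {σ : Equiv.Perm GolayPt} (hm : Act C m σ) : Act C m⁻¹ σ⁻¹ := by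
  intro p q hpq
  have h := hm (σ⁻¹ p) (σ⁻¹ q) ((σ⁻¹).injective.ne hpq)
  simp only [Equiv.Perm.inv_def, Equiv.apply_symm_apply] at h
  rw [← h, Equiv.Perm.inv_def]
  simp [mul_assoc]

theorem act_one_one : Act C (1 : G) 1 := fun p q _ => by simp

theorem exists_act {m : G} (hm : m ∈ Subgroup.normalizer (C.AG : Set G)) :
    ∃ σ ∈ Cfsg.M24, Act C m σ :=
  C.duads.perm m hm

theorem exists_lift {σ : Equiv.Perm GolayPt} (hσ : σ ∈ Cfsg.M24) :
    ∃ m ∈ Subgroup.normalizer (C.AG : Set G), Act C m σ :=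
  C.duads.lift σ hσ

/-- A permutation that fixes all duads is trivial. -/
theorem act_one_eq {σ : Equiv.Perm GolayPt} (h : Act C (1 : G) σ) : σ = 1 := by
  refine Equiv.ext fun p => ?_
  obtain ⟨q, hqp, hqs⟩ : ∃ q, q ≠ p ∧ q ≠ σ p := by
    by_contra hno
    push Not at hno
    have hsub : (Finset.univ : Finset GolayPt) ⊆ {p, σ p} := fun q _ => by
      by_cases e : q = p
      · simp [e]
      · simp [hno q e]
    have := (Finset.card_le_card hsub).trans Finset.card_le_two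
    rw [Finset.card_univ, show Fintype.card GolayPt = 24 from rfl] at this
    omega
  have e := h p q hqp.symm
  simp only [one_mul, inv_one, mul_one] at e
  have hmem : σ p ∈ ({p, q} : Finset GolayPt) :=
    C.duads.inj p q _ _ hqp.symm e ▸ Finset.mem_insert_self _ _
  rcases Finset.mem_insert.1 hmem with e' | e'
  · exact e'
  · exact absurd (Finset.mem_singleton.1 e').symm hqs

theorem Act.sq_eq_one {m : G} {σ : Equiv.Perm GolayPt} (hm : Act C m σ) (h : m * m = 1) :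
    σ * σ = 1 :=
  act_one_eq (h ▸ hm.mul hm)

/-- An element fixing a duad fixes or swaps its ends. -/
theorem Act.pair {m : G} {σ : Equiv.Perm GolayPt} (hm : Act C m σ) {p q : GolayPt} (hpq : p ≠ q)
    (hc : m * C.d p q = C.d p q * m) : (σ p = p ∧ σ q = q) ∨ (σ p = q ∧ σ q = p) := by
  have e := (hm p q hpq).symm.trans (mul_inv_eq_iff_eq_mul.2 hc)
  have h := C.duads.inj _ _ _ _ (σ.injective.ne hpq) e
  have hp : σ p ∈ ({p, q} : Finset GolayPt) := h ▸ Finset.mem_insert_self _ _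
  have hq : σ q ∈ ({p, q} : Finset GolayPt) :=
    h ▸ Finset.mem_insert_of_mem (Finset.mem_singleton_self _)
  simp only [Finset.mem_insert, Finset.mem_singleton] at hp hq
  rcases hp with hp | hp <;> rcases hq with hq | hq
  · exact absurd (hp.trans hq.symm) (σ.injective.ne hpq)
  · exact Or.inl ⟨hp, hq⟩
  · exact Or.inr ⟨hp, hq⟩
  · exact absurd (hp.trans hq.symm) (σ.injective.ne hpq)

theorem Act.commute {m : G} {σ : Equiv.Perm GolayPt} (hm : Act C m σ) {p q : GolayPt} (hpq : p ≠ q)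
    (hp : σ p = p) (hq : σ q = q) : m * C.d p q = C.d p q * m := by
  have := hm p q hpq
  rw [hp, hq] at this
  exact mul_inv_eq_iff_eq_mul.1 this

theorem Act.mem_CE {m : G} {σ : Equiv.Perm GolayPt} (hm : Act C m σ) (ha : σ C.a = C.a)
    (hb : σ C.b = C.b) (hc : σ C.c = C.c) : m ∈ C.CE :=
  C.mem_CE_iff.2 ⟨hm.commute C.hab ha hb, hm.commute C.hbc hb hc⟩

theorem Act.fix_of_mem_CE {m : G} {σ : Equiv.Perm GolayPt} (hm : Act C m σ) (h : m ∈ C.CE) :
    σ C.a = C.a ∧ σ C.b = C.b ∧ σ C.c = C.c := by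
  obtain ⟨h1, h2⟩ := C.mem_CE_iff.1 h
  rcases hm.pair C.hab h1 with ⟨e1, e2⟩ | ⟨e1, e2⟩ <;>
    rcases hm.pair C.hbc h2 with ⟨e3, e4⟩ | ⟨e3, e4⟩
  · exact ⟨e1, e3, e4⟩
  · exact absurd (e2.symm.trans e3) C.hbc
  · exact absurd (e2.symm.trans e3) C.hab
  · exact absurd (e2.symm.trans e3) C.hac

/-- A permutation in `M24` taking three points to three points. -/
theorem exists_three {a b c a' b' c' : GolayPt} (h1 : a ≠ b) (h2 : a ≠ c) (h3 : b ≠ c)
    (h1' : a' ≠ b') (h2' : a' ≠ c') (h3' : b' ≠ c') :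
    ∃ σ ∈ Cfsg.M24, σ a = a' ∧ σ b = b' ∧ σ c = c' := by
  obtain ⟨σ, hσ, h⟩ := M24Module.exists_perm (k := 3) (by norm_num) ![a, b, c] ![a', b', c']
    (by intro i j hij; fin_cases i <;> fin_cases j <;> simp_all [eq_comm])
    (by intro i j hij; fin_cases i <;> fin_cases j <;> simp_all [eq_comm])
  exact ⟨σ, hσ, h 0, h 1, h 2⟩

theorem exists_four {a b c d a' b' c' d' : GolayPt} (h1 : a ≠ b) (h2 : a ≠ c) (h3 : a ≠ d)
    (h4 : b ≠ c) (h5 : b ≠ d) (h6 : c ≠ d) (h1' : a' ≠ b') (h2' : a' ≠ c') (h3' : a' ≠ d')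
    (h4' : b' ≠ c') (h5' : b' ≠ d') (h6' : c' ≠ d') :
    ∃ σ ∈ Cfsg.M24, σ a = a' ∧ σ b = b' ∧ σ c = c' ∧ σ d = d' := by
  obtain ⟨σ, hσ, h⟩ := M24Module.exists_perm (k := 4) (by norm_num) ![a, b, c, d] ![a', b', c', d']
    (by intro i j hij; fin_cases i <;> fin_cases j <;> simp_all [eq_comm])
    (by intro i j hij; fin_cases i <;> fin_cases j <;> simp_all [eq_comm])
  exact ⟨σ, hσ, h 0, h 1, h 2, h 3⟩

/-- An involution of `M24` fixing two points fixes a third. -/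
theorem exists_third_fixed {σ : Equiv.Perm GolayPt} (hσ : σ ∈ Cfsg.M24) (h2 : σ * σ = 1)
    {a b : GolayPt} (hab : a ≠ b) (ha : σ a = a) (hb : σ b = b) :
    ∃ x, x ≠ a ∧ x ≠ b ∧ σ x = x := by
  classical
  by_contra hno
  push Not at hno
  have hsupp : σ.support = ({a, b} : Finset GolayPt)ᶜ := by
    ext x
    simp only [Equiv.Perm.mem_support, Finset.mem_compl, Finset.mem_insert, Finset.mem_singleton]
    refine ⟨fun hx => ?_, fun hx => hno x (fun e => hx (Or.inl e)) (fun e => hx (Or.inr e))⟩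
    rintro (rfl | rfl)
    · exact hx ha
    · exact hx hb
  have hcard : σ.support.card = 22 := by
    rw [hsupp, Finset.card_compl, Finset.card_pair hab]
    rfl
  have hty : ∀ n ∈ σ.cycleType, n = 2 := by
    intro n hn
    have h1 := Equiv.Perm.dvd_of_mem_cycleType hn
    have h2' := Equiv.Perm.two_le_of_mem_cycleType hn
    have h3 := h1.trans (orderOf_dvd_of_pow_eq_one (n := 2) (by rw [sq, h2]))
    exact le_antisymm (Nat.le_of_dvd two_pos h3) h2'
  have hrep : σ.cycleType = Multiset.replicate σ.cycleType.card 2 :=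
    Multiset.eq_replicate.2 ⟨rfl, hty⟩
  have hs := σ.sum_cycleType
  rw [hrep, Multiset.sum_replicate, hcard, smul_eq_mul] at hs
  have hsign := CfsgLib.Mathieu.sign_eq_one hσ
  rw [Equiv.Perm.sign_of_cycleType, σ.sum_cycleType, hcard,
    show σ.cycleType.card = 11 by omega] at hsign
  exact absurd hsign (by decide)

/-- An involution fixing three points fixes a fourth. -/
theorem exists_fourth_fixed {σ : Equiv.Perm GolayPt} (h2 : σ * σ = 1) {a b c : GolayPt}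
    (hab : a ≠ b) (hac : a ≠ c) (hbc : b ≠ c) (ha : σ a = a) (hb : σ b = b) (hc : σ c = c) :
    ∃ x, x ≠ a ∧ x ≠ b ∧ x ≠ c ∧ σ x = x := by
  classical
  by_contra hno
  push Not at hno
  have hsupp : σ.support = ({a, b, c} : Finset GolayPt)ᶜ := by
    ext x
    simp only [Equiv.Perm.mem_support, Finset.mem_compl, Finset.mem_insert, Finset.mem_singleton]
    refine ⟨fun hx => ?_, fun hx => hno x (fun e => hx (Or.inl e)) (fun e => hx (Or.inr (Or.inl e)))
      (fun e => hx (Or.inr (Or.inr e)))⟩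
    rintro (rfl | rfl | rfl)
    · exact hx ha
    · exact hx hb
    · exact hx hc
  have hcard : σ.support.card = 21 := by
    rw [hsupp, Finset.card_compl, Finset.card_eq_three.2 ⟨a, b, c, hab, hac, hbc, rfl⟩]
    rfl
  have hty : ∀ n ∈ σ.cycleType, n = 2 := by
    intro n hn
    have h1 := Equiv.Perm.dvd_of_mem_cycleType hn
    have h2' := Equiv.Perm.two_le_of_mem_cycleType hn
    have h3 := h1.trans (orderOf_dvd_of_pow_eq_one (n := 2) (by rw [sq, h2]))
    exact le_antisymm (Nat.le_of_dvd two_pos h3) h2'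
  have hrep : σ.cycleType = Multiset.replicate σ.cycleType.card 2 :=
    Multiset.eq_replicate.2 ⟨rfl, hty⟩
  have hs := σ.sum_cycleType
  rw [hrep, Multiset.sum_replicate, hcard, smul_eq_mul] at hs
  omega

variable (C)

/-- The 2-subgroups containing the elementary subgroup normalize it. -/
theorem le_normalizer {P : Subgroup G} (hP : IsPGroup 2 P) (hA : C.AG ≤ P) :
    P ≤ Subgroup.normalizer (C.AG : Set G) := by
  intro g hg
  obtain ⟨T, hT⟩ := hP.exists_le_sylow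
  have htop := C.facts.loc.top
  have key : ∀ g ∈ P, C.AG.map (MulAut.conj g).toMonoidHom = C.AG := by
    intro g hg
    refine (htop.unique (hA.trans hT) ?_ (htop.conj g).elem).2 (htop.conj g).card
    rintro _ ⟨x, hx, rfl⟩
    exact mul_mem (mul_mem (hT hg) (hT (hA hx))) (inv_mem (hT hg))
  refine Subgroup.mem_normalizer_iff.2 fun x => ⟨fun hx => key g hg ▸ ⟨x, hx, rfl⟩, fun hx => ?_⟩
  exact (mem_conj_iff C.AG g x).1 ((key g hg).symm ▸ hx)

/-- A Sylow 2-subgroup of an overgroup of the elementary subgroup lies in the normalizer. -/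
theorem exists_sylow (K : Subgroup G) (hA : C.AG ≤ K) : ∃ T : Sylow 2 ↥K,
    C.AG.subgroupOf K ≤ (T : Subgroup ↥K) ∧
      ∀ x ∈ (T : Subgroup ↥K), (x : G) ∈ Subgroup.normalizer (C.AG : Set G) := by
  have hp : IsPGroup 2 ↥(C.AG.subgroupOf K) :=
    (CfsgLib.LocalP.isPGroup_of_isElementaryAbelian C.facts.loc.top.elem).of_equiv
      (Subgroup.subgroupOfEquivOfLe hA).symm
  obtain ⟨T, hT⟩ := hp.exists_le_sylow
  refine ⟨T, hT, fun x hx => le_normalizer C (T.2.map K.subtype) ?_ ⟨x, hx, rfl⟩⟩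
  intro y hy
  exact ⟨⟨y, hA hy⟩, hT (Subgroup.mem_subgroupOf.2 hy), rfl⟩

/-- An involution is conjugate into a given Sylow 2-subgroup. -/
theorem exists_conj_sylow {K : Type*} [Group K] [Finite K] (T : Sylow 2 K) {y : K}
    (hy : y * y = 1) : ∃ g : K, g * y * g⁻¹ ∈ (T : Subgroup K) := by
  have hp : IsPGroup 2 ↥(Subgroup.zpowers y) := fun x => ⟨1, by
    obtain ⟨k, hk⟩ := Subgroup.mem_zpowers_iff.1 x.2
    refine Subtype.ext ?_
    rw [pow_one, Subgroup.coe_pow, ← hk, Subgroup.coe_one, ← zpow_natCast, ← zpow_mul, mul_comm,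
      zpow_mul, zpow_natCast, sq, hy, one_zpow]⟩
  obtain ⟨T', hT'⟩ := hp.exists_le_sylow
  obtain ⟨g, rfl⟩ := MulAction.exists_smul_eq K T' T
  exact ⟨g, ⟨y, hT' (Subgroup.mem_zpowers y), rfl⟩⟩

/-- A member of `C(E)` moving a point `x` to `e`. -/
theorem exists_to_e {x : GolayPt} (xa : x ≠ C.a) (xb : x ≠ C.b) (xc : x ≠ C.c) :
    ∃ n ∈ Subgroup.normalizer (C.AG : Set G), n ∈ C.CE ∧ n * C.zp x * n⁻¹ = z := by
  obtain ⟨σ, hσ, ha, hb, hc, hx⟩ := exists_four C.hab C.hac xa.symm C.hbc xb.symm xc.symm C.hab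
    C.hac C.hae C.hbc C.hbe C.hce
  obtain ⟨n, hn, hnC, -, hzp⟩ := C.lift_fix hσ ha hb hc
  exact ⟨n, hn, hnC, by rw [hzp x xc, hx, C.zp_e]⟩

/-- Every involution of `C(E)` is conjugate in `C(E)` into the elementary subgroup. -/
theorem exists_conj_AG (hcov : CovHyp C) {y : G} (hy : y ∈ C.CE) (hy2 : y * y = 1) :
    ∃ g ∈ C.CE, g * y * g⁻¹ ∈ C.AG := by
  obtain ⟨T, -, hTN⟩ := exists_sylow C C.CE C.AG_le_CE
  obtain ⟨g₁, hg₁⟩ := exists_conj_sylow T (y := ⟨y, hy⟩) (Subtype.ext hy2)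
  set y₁ : G := (g₁ : G) * y * (g₁ : G)⁻¹ with hy₁
  have hy₁N : y₁ ∈ Subgroup.normalizer (C.AG : Set G) := hTN _ hg₁
  have hy₁C : y₁ ∈ C.CE := mul_mem (mul_mem g₁.2 hy) (inv_mem g₁.2)
  have hy₁2 : y₁ * y₁ = 1 := by
    rw [hy₁, conj_mul, hy2, mul_one, mul_inv_cancel]
  obtain ⟨σ, hσ, hact⟩ := exists_act hy₁N
  obtain ⟨ha, hb, hc⟩ := hact.fix_of_mem_CE hy₁C
  obtain ⟨x, xa, xb, xc, hx⟩ :=
    exists_fourth_fixed (hact.sq_eq_one hy₁2) C.hab C.hac C.hbc ha hb hc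
  have hfix : y₁ * C.zp x * y₁⁻¹ = C.zp x := by
    rw [Cfg.zp, ← conj_mul, hact _ _ C.hab, hact _ _ xc.symm, ha, hb, hc, hx]
  obtain ⟨n, -, hnC, hnx⟩ := exists_to_e C xa xb xc
  set y₂ : G := n * y₁ * n⁻¹ with hy₂
  have hy₂z : y₂ * z = z * y₂ := by
    refine mul_inv_eq_iff_eq_mul.1 ?_
    rw [← hnx, hy₂]
    calc n * y₁ * n⁻¹ * (n * C.zp x * n⁻¹) * (n * y₁ * n⁻¹)⁻¹
        = n * (y₁ * C.zp x * y₁⁻¹) * n⁻¹ := by group
      _ = _ := by rw [hfix]
  have hy₂2 : y₂ * y₂ ∈ C.E := by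
    rw [hy₂, conj_mul, hy₁2, mul_one, mul_inv_cancel]
    exact one_mem _
  obtain ⟨g₂, hg₂, -, hg₂A⟩ := hcov y₂ (mul_mem (mul_mem hnC hy₁C) (inv_mem hnC)) hy₂z hy₂2
  refine ⟨g₂ * n * g₁, mul_mem (mul_mem hg₂ hnC) g₁.2, ?_⟩
  convert hg₂A using 1
  rw [hy₂, hy₁]
  group

/-- The centralizer of the duad `ab`. -/
def CT : Subgroup G := Subgroup.centralizer ({C.d C.a C.b} : Set G)

theorem mem_CT {g : G} : g ∈ CT C ↔ g * C.d C.a C.b = C.d C.a C.b * g :=
  Subgroup.mem_centralizer_singleton_iff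

theorem CE_le_CT : C.CE ≤ CT C := fun _ hg => (mem_CT C).2 (C.mem_CE_iff.1 hg).1

theorem AG_le_CT : C.AG ≤ CT C := C.AG_le_CE.trans (CE_le_CT C)

theorem conj_ab {g : G} (hg : g ∈ CT C) : g * C.d C.a C.b * g⁻¹ = C.d C.a C.b :=
  mul_inv_eq_iff_eq_mul.2 ((mem_CT C).1 hg)

/-- The members of the normalizer fixing both ends of `ab`. -/
def inner : Subgroup G where
  carrier := {m | m ∈ Subgroup.normalizer (C.AG : Set G) ∧
    ∃ σ ∈ Cfsg.M24, Act C m σ ∧ σ C.a = C.a ∧ σ C.b = C.b}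
  one_mem' := ⟨one_mem _, 1, one_mem _, act_one_one, rfl, rfl⟩
  mul_mem' := by
    rintro m n ⟨hm, σ, hσ, hmσ, a1, b1⟩ ⟨hn, τ, hτ, hnτ, a2, b2⟩
    exact ⟨mul_mem hm hn, σ * τ, mul_mem hσ hτ, hmσ.mul hnτ,
      by rw [Equiv.Perm.mul_apply, a2, a1], by rw [Equiv.Perm.mul_apply, b2, b1]⟩
  inv_mem' := by
    rintro m ⟨hm, σ, hσ, hmσ, a1, b1⟩
    exact ⟨inv_mem hm, σ⁻¹, inv_mem hσ, hmσ.inv, Equiv.Perm.inv_eq_iff_eq.2 a1.symm,
      Equiv.Perm.inv_eq_iff_eq.2 b1.symm⟩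

theorem inner_le_CT : inner C ≤ CT C := by
  rintro m ⟨-, σ, -, hmσ, ha, hb⟩
  exact (mem_CT C).2 (hmσ.commute C.hab ha hb)

/-- An involution of the normalizer that fixes `a` and `b` and has a product with `ab` in the
second class is fused in `C(ab)` to `bc` or `ac`. -/
theorem inner_fusion (hcov : CovHyp C) {y : G} (hy : y ∈ inner C) (hy2 : y * y = 1)
    (ho : Other z y) (ho' : Other z (y * C.d C.a C.b)) :
    ∃ k ∈ CT C, k * y * k⁻¹ = C.d C.b C.c ∨ k * y * k⁻¹ = C.d C.a C.c := by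
  obtain ⟨hyN, σ, hσ, hact, ha, hb⟩ := hy
  obtain ⟨c', c'a, c'b, hc'⟩ := exists_third_fixed hσ (hact.sq_eq_one hy2) C.hab ha hb
  obtain ⟨τ, hτ, ta, tb, tc⟩ := exists_three C.hab c'a.symm c'b.symm C.hab C.hac C.hbc
  obtain ⟨m, -, hmτ⟩ := exists_lift (C := C) hτ
  have hmT : m ∈ CT C := (mem_CT C).2 (hmτ.commute C.hab ta tb)
  have hact' := (hmτ.mul hact).mul hmτ.inv
  have ea : τ⁻¹ C.a = C.a := Equiv.Perm.inv_eq_iff_eq.2 ta.symm
  have eb : τ⁻¹ C.b = C.b := Equiv.Perm.inv_eq_iff_eq.2 tb.symm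
  have ec : τ⁻¹ C.c = c' := Equiv.Perm.inv_eq_iff_eq.2 tc.symm
  set y' : G := m * y * m⁻¹ with hy'
  have hy'C : y' ∈ C.CE := hact'.mem_CE
    (by simp only [Equiv.Perm.mul_apply, ea, ha, ta])
    (by simp only [Equiv.Perm.mul_apply, eb, hb, tb])
    (by simp only [Equiv.Perm.mul_apply, ec, hc', tc])
  obtain ⟨g, hg, hgA⟩ := exists_conj_AG C hcov hy'C
    (by rw [hy', conj_mul, hy2, mul_one, mul_inv_cancel])
  set k := g * m with hk
  have hkT : k ∈ CT C := mul_mem (CE_le_CT C hg) hmT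
  set x := k * y * k⁻¹ with hx
  have hxA : x ∈ C.AG := by
    convert hgA using 1
    rw [hx, hk, hy']
    group
  have hxab : Other z (x * C.d C.a C.b) := by
    have : x * C.d C.a C.b = k * (y * C.d C.a C.b) * k⁻¹ := by
      rw [hx, ← conj_mul, conj_ab C hkT]
    exact this ▸ (other_conj k).2 ho'
  obtain ⟨p, q, hpq, hd⟩ := C.duads.surj x hxA ((other_conj k).2 ho)
  -- one end of `x` is `a` or `b`
  have main : ∀ p q, p ≠ q → C.d p q = x → (p = C.a ∨ p = C.b) → C.d p q ≠ C.d C.a C.b →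
      ∃ k' ∈ CT C, k' * x * k'⁻¹ = C.d C.b C.c ∨ k' * x * k'⁻¹ = C.d C.a C.c := by
    intro p q hpq hd hp hne
    have hqa : q ≠ C.a := by
      rintro rfl
      rcases hp with rfl | rfl
      · exact hpq rfl
      · exact hne (C.duads.symm _ _)
    have hqb : q ≠ C.b := by
      rintro rfl
      rcases hp with rfl | rfl
      · exact hne rfl
      · exact hpq rfl
    obtain ⟨ρ, hρ, ra, rb, rq⟩ := exists_three C.hab hqa.symm hqb.symm C.hab C.hac C.hbc
    obtain ⟨n, -, hn⟩ := exists_lift (C := C) hρ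
    refine ⟨n, (mem_CT C).2 (hn.commute C.hab ra rb), ?_⟩
    rw [← hd, hn p q hpq, rq]
    rcases hp with rfl | rfl
    · exact Or.inr (by rw [ra])
    · exact Or.inl (by rw [rb])
  have hne : x ≠ C.d C.a C.b := fun e => hxab.1 (by
    rw [e, C.AG_sq (C.duads.mem _ _ C.hab)])
  have hshare := C.duads.share hpq C.hab (show Other z (C.d p q * C.d C.a C.b) from hd ▸ hxab)
  obtain ⟨k', hk'T, hk'⟩ : ∃ k' ∈ CT C,
      k' * x * k'⁻¹ = C.d C.b C.c ∨ k' * x * k'⁻¹ = C.d C.a C.c := by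
    rcases hshare with h | h | h | h
    · exact main p q hpq hd (Or.inl h) (hd.symm ▸ hne)
    · exact main p q hpq hd (Or.inr h) (hd.symm ▸ hne)
    · exact main q p hpq.symm ((C.duads.symm q p).trans hd) (Or.inl h)
        ((C.duads.symm q p).trans hd ▸ hne)
    · exact main q p hpq.symm ((C.duads.symm q p).trans hd) (Or.inr h)
        ((C.duads.symm q p).trans hd ▸ hne)
  refine ⟨k' * k, mul_mem hk'T hkT, ?_⟩
  have e : k' * k * y * (k' * k)⁻¹ = k' * x * k'⁻¹ := by rw [hx]; group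
  rw [e]
  exact hk'

end CfsgLib.LargeFischer91
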